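import Mathlib
import Cfsg.Agent.Lib.Helper33.Breadth.Defs

set_option autoImplicit false

/-!
# BREADTH (S3777), package [TWOMAX]: a non-cyclic finite `p`-group has a second subgroup of
index `p`
-/

namespace Cfsg.Agent.Lib.Helper43.Breadth

open Cfsg.Agent.Lib.Helper33.Breadth

universe u

theorem pkgTwoMax : PkgTwoMax.{u} := by
  intro Q _ _ p _ hQ hcyc D hD
  have hp : p.Prime := Fact.out
  obtain ⟨N, hN⟩ := IsPGroup.iff_card.mp hQ
  have hDtop : D ≠ ⊤ := by
    rintro rfl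
    rw [Subgroup.index_top] at hD
    exact hp.one_lt.ne hD
  obtain ⟨x, -, hx⟩ := SetLike.exists_of_lt (lt_top_iff_ne_top.mpr hDtop)
  obtain ⟨n, hn⟩ := IsPGroup.iff_card.mp (hQ.to_subgroup (Subgroup.zpowers x))
  have hne : Subgroup.zpowers x ≠ ⊤ := by
    intro h
    exact hcyc (isCyclic_iff_exists_zpowers_eq_top.mpr ⟨x, h⟩)
  have hdvd : p ^ n ∣ p ^ N := by
    rw [← hn, ← hN]
    exact Subgroup.card_subgroup_dvd_card _
  have hnN : n ≤ N := (Nat.pow_dvd_pow_iff_le_right hp.one_lt).mp hdvd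
  have hnN' : n ≠ N := by
    rintro rfl
    apply hne
    apply Subgroup.eq_top_of_card_eq
    rw [hn, hN]
  have hN1 : 1 ≤ N := by omega
  have hdvd' : p ^ (N - 1) ∣ Nat.card Q := by
    rw [hN]
    exact pow_dvd_pow p (by omega)
  obtain ⟨K, hK, hle⟩ := Sylow.exists_subgroup_card_pow_prime_le p hdvd' (Subgroup.zpowers x) hn
    (by omega : n ≤ N - 1)
  refine ⟨K, ?_, ?_⟩
  · have h1 := Subgroup.index_mul_card K
    rw [hK, hN] at h1
    have h2 : p ^ N = p * p ^ (N - 1) := by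
      rw [← pow_succ']
      congr 1
      omega
    rw [h2] at h1
    exact Nat.eq_of_mul_eq_mul_right (pow_pos hp.pos _) h1
  · rintro rfl
    exact hx (hle (Subgroup.mem_zpowers x))

end Cfsg.Agent.Lib.Helper43.Breadth
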